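import Cfsg.Agent.LyThree47.Table
import Cfsg.Agent.McLCover.Model

/-!
Kernel checks of the words of the centraliser of an element of order three.
-/

set_option autoImplicit false
set_option maxRecDepth 100000
set_option Elab.async false

namespace CfsgLib.LyThree47

open CfsgLib.LyRep96
open CfsgLib.LyExist36 (iw)

theorem def10 : eqT [10] aWord = true := by decide +kernel

theorem def22 : eqT [22] wWord = true := by decide +kernel

theorem def11 : eqT [11] [22, 22, 22] = true := by decide +kernel

theorem def12 : eqT [12] [11, 11, 11, 11] = true := by decide +kernel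

theorem def20 : eqT [20] xWord = true := by decide +kernel

theorem def21 : eqT [21] [20, 20] = true := by decide +kernel

theorem defG0 : (List.range' 0 3).all (fun i => eqT [13 + i] (gWords.getD i [])) = true := by
  decide +kernel

theorem defG1 : (List.range' 3 4).all (fun i => eqT [13 + i] (gWords.getD i [])) = true := by
  decide +kernel

theorem defG {i : ℕ} (h : i < 7) : eqT [13 + i] (gWords.getD i []) = true := by
  rcases Nat.lt_or_ge i 3 with h' | h'
  · exact List.all_eq_true.mp defG0 i (List.mem_range'_1.mpr ⟨Nat.zero_le i, by omega⟩)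
  · exact List.all_eq_true.mp defG1 i (List.mem_range'_1.mpr ⟨h', by omega⟩)

theorem t_cube : eqT [20, 20, 20] [] = true ∧ eqT [20] [] = false := by decide +kernel

theorem g_comm : (List.range 7).all (fun i => eqT [13 + i, 20] [20, 13 + i]) = true := by
  decide +kernel

theorem g_ne : eqT [13] [] = false ∧ eqT [13] [20] = false ∧ eqT [13] [21] = false := by
  decide +kernel

theorem rel_check0 : (List.range' 0 22).all (fun i =>
    eqT ((McLCover.mclRels.getD i []).map (· + 13)) (expWord (relExp.getD i 0))) = true := by
  decide +kernel

theorem rel_check1 : (List.range' 22 10).all (fun i =>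
    eqT ((McLCover.mclRels.getD i []).map (· + 13)) (expWord (relExp.getD i 0))) = true := by
  decide +kernel

theorem rel_check2 : (List.range' 32 8).all (fun i =>
    eqT ((McLCover.mclRels.getD i []).map (· + 13)) (expWord (relExp.getD i 0))) = true := by
  decide +kernel

theorem rel_check3 : (List.range' 40 8).all (fun i =>
    eqT ((McLCover.mclRels.getD i []).map (· + 13)) (expWord (relExp.getD i 0))) = true := by
  decide +kernel

theorem rel_check {i : ℕ} (h : i < 48) :
    eqT ((McLCover.mclRels.getD i []).map (· + 13)) (expWord (relExp.getD i 0)) = true := by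
  rcases Nat.lt_or_ge i 22 with h1 | h1
  · exact List.all_eq_true.mp rel_check0 i (List.mem_range'_1.mpr ⟨Nat.zero_le i, by omega⟩)
  rcases Nat.lt_or_ge i 32 with h2 | h2
  · exact List.all_eq_true.mp rel_check1 i (List.mem_range'_1.mpr ⟨h1, by omega⟩)
  rcases Nat.lt_or_ge i 40 with h3 | h3
  · exact List.all_eq_true.mp rel_check2 i (List.mem_range'_1.mpr ⟨h2, by omega⟩)
  · exact List.all_eq_true.mp rel_check3 i (List.mem_range'_1.mpr ⟨h3, by omega⟩)

theorem rel_length : McLCover.mclRels.length = 48 := by decide +kernel

/-- the double coset representative -/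
def gWord4 : List ℕ := [8, 6, 4, 6, 8]

theorem s_in_coset : sameOK sWord (h1Word ++ gWord4 ++ h2Word) = true := by decide +kernel

theorem k_image0 : sameOK ((kPairs.getD 0 ([], [])).1 ++ gWord4)
    (gWord4 ++ (kPairs.getD 0 ([], [])).2) = true := by
  decide +kernel

theorem k_image1 : sameOK ((kPairs.getD 1 ([], [])).1 ++ gWord4)
    (gWord4 ++ (kPairs.getD 1 ([], [])).2) = true := by
  decide +kernel

theorem k_image2 : sameOK ((kPairs.getD 2 ([], [])).1 ++ gWord4)
    (gWord4 ++ (kPairs.getD 2 ([], [])).2) = true := by
  decide +kernel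

theorem k_length : kPairs.length = 3 := by decide +kernel

theorem k_images {j : ℕ} (h : j < kPairs.length) : sameOK ((kPairs.getD j ([], [])).1 ++ gWord4)
    (gWord4 ++ (kPairs.getD j ([], [])).2) = true := by
  rw [k_length] at h
  interval_cases j
  exacts [k_image0, k_image1, k_image2]

/-- a generator as a word -/
def kGen (j : ℕ) : List ℕ := h1Word ++ (kPairs.getD j ([], [])).1 ++ iw h1Word

theorem kGen_lt : (List.range 3).all (fun j => (kGen j).all fun x => Nat.blt x 8) = true := by
  decide +kernel

/-- the word of a list of indices -/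
def kWord (ids : List ℕ) : List ℕ := ids.flatMap kGen

theorem k_vecs : (kIds.map fun ids => runM matL (kWord ids ++ sWord ++ iw (kWord ids)) (B ^ 7)) =
    kVecs := by
  decide +kernel

theorem k_vecs_lt : (List.range 5).all (fun i => Nat.blt (kVecs.getD i 0) (kVecs.getD (i + 1) 0)) =
    true ∧ kVecs.length = 6 ∧ kIds.length = 6 := by
  decide +kernel

theorem words_ok : (h1Word.all (fun x => Nat.blt x 8) && h2Word.all (fun x => Nat.blt x 8) &&
    kPairs.all (fun p => p.1.all (fun x => Nat.blt x 8) && p.2.all (fun x => Nat.blt x 8)) &&
    qWord.all (fun x => Nat.blt x 78) &&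
    Nat.beq sWord.length (iw qWord ++ xWord ++ qWord).length &&
    (List.range sWord.length).all (fun i =>
      Nat.beq (sWord.getD i 0) ((iw qWord ++ xWord ++ qWord).getD i 0))) = true := by
  decide +kernel

theorem s_eq : sWord = iw qWord ++ xWord ++ qWord := by decide +kernel

end CfsgLib.LyThree47
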