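import Cfsg.Agent.McLCover.Model
import Cfsg.Agent.Eq.Def_Sporadic
import Cfsg.Prelude.Def_Sporadic

/-!
An element of order three whose centraliser is small and contains seven elements satisfying the
relators of `McL` modulo the element has centraliser a triple extension of `McL`.
-/

set_option autoImplicit false

namespace CfsgLib.LyThree47

open CfsgLib.CosetEnum CfsgLib.Schur

attribute [local irreducible] CfsgLib.McLCover.mclRels

/-- A group generated by seven elements with the relators of `McL` is trivial or `McL`. -/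
theorem simple_of_mclRels {Q : Type} [Group Q] (q : ℕ → Q)
    (hgen : Subgroup.closure {z | ∃ a < 7, q a = z} = ⊤)
    (hrel : ∀ r ∈ McLCover.mclRels, gword q r = 1) (hne : ∃ a < 7, q a ≠ 1) :
    IsSimpleGroup Q ∧ Nat.card Q = 898128000 := by
  let p : ℕ → Equiv.Perm (Fin 275) × Q := fun a => (McLCover.gperm a, q a)
  have hp : ∀ r ∈ McLCover.mclRels, gword p r = 1 := fun r hr => by
    have key : ∀ w : List ℕ, gword p w = (gword McLCover.gperm w, gword q w) := by
      intro w
      induction w with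
      | nil => rfl
      | cons x w ih => rw [gword_cons, gword_cons, gword_cons, ih]; rfl
    rw [key, McLCover.gperm_rels r hr, hrel r hr]
    rfl
  let P : Subgroup (Equiv.Perm (Fin 275) × Q) := Chain.seg p 7
  obtain ⟨hle, hne0⟩ := McLCover.card_seg_le p hp
  haveI : Finite P := Nat.finite_of_card_ne_zero hne0
  have hfst : P.map (MonoidHom.fst _ _) = McLCover.K := by
    rw [show P = Subgroup.closure _ from rfl, MonoidHom.map_closure]
    refine congrArg Subgroup.closure (Set.ext fun g => ?_)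
    constructor
    · rintro ⟨_, ⟨a, ha, rfl⟩, rfl⟩; exact ⟨a, ha, rfl⟩
    · rintro ⟨a, ha, rfl⟩; exact ⟨_, ⟨a, ha, rfl⟩, rfl⟩
  let toK : P →* McLCover.K :=
    { toFun := fun w => ⟨w.1.1, hfst ▸ Subgroup.mem_map_of_mem (MonoidHom.fst _ _) w.2⟩
      map_one' := rfl
      map_mul' := fun _ _ => rfl }
  have hsK : Function.Surjective toK := by
    rintro ⟨g, hg⟩
    obtain ⟨w, hw, rfl⟩ : g ∈ P.map (MonoidHom.fst _ _) := hfst ▸ hg
    exact ⟨⟨w, hw⟩, rfl⟩
  have hcK := McLCover.card_K
  have hbij : Function.Bijective toK :=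
    (Nat.bijective_iff_surjective_and_card _).2 ⟨hsK, le_antisymm (hcK ▸ hle)
      (Nat.card_le_card_of_surjective toK hsK)⟩
  haveI : IsSimpleGroup P :=
    haveI := McLCover.isSimpleGroup_K
    (MulEquiv.ofBijective toK hbij).isSimpleGroup
  let toQ : P →* Q := (MonoidHom.snd _ _).comp P.subtype
  have hsQ : Function.Surjective toQ := by
    rw [← MonoidHom.range_eq_top, eq_top_iff, ← hgen, Subgroup.closure_le]
    rintro _ ⟨a, ha, rfl⟩
    exact ⟨⟨p a, Subgroup.subset_closure ⟨a, ha, rfl⟩⟩, rfl⟩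
  have hker : toQ.ker = ⊥ := by
    refine (toQ.normal_ker.eq_bot_or_eq_top).resolve_right fun h => ?_
    obtain ⟨a, -, hqa⟩ := hne
    obtain ⟨w, hw⟩ := hsQ (q a)
    exact hqa (hw ▸ (by rw [← MonoidHom.mem_ker, h]; exact Subgroup.mem_top w))
  have hbQ : Function.Bijective toQ := ⟨(MonoidHom.ker_eq_bot_iff _).1 hker, hsQ⟩
  exact ⟨(MulEquiv.ofBijective toQ hbQ).symm.isSimpleGroup, by
    rw [← Nat.card_eq_of_bijective toQ hbQ, Nat.card_eq_of_bijective toK hbij, hcK]⟩

/-- The centraliser of the element is the triple extension. -/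
theorem centralizer_three {G : Type} [Group G] [Finite G] {x : G} (hx : orderOf x = 3) (v : ℕ → G)
    (hcomm : ∀ a < 7, v a ∈ Subgroup.centralizer ({x} : Set G))
    (hrel : ∀ r ∈ McLCover.mclRels, gword v r ∈ Subgroup.zpowers x)
    (hne : ∃ a < 7, v a ∉ Subgroup.zpowers x)
    (hle : Nat.card (Subgroup.centralizer ({x} : Set G)) < 5388768000) :
    Nat.card (Subgroup.center (Subgroup.centralizer ({x} : Set G))) = 3 ∧
      Cfsg.IsMcL ((Subgroup.centralizer ({x} : Set G)) ⧸
        Subgroup.center (Subgroup.centralizer ({x} : Set G))) := by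
  classical
  set C := Subgroup.centralizer ({x} : Set G) with hC
  have hxC : x ∈ C := Subgroup.mem_centralizer_singleton_iff.2 rfl
  let xc : C := ⟨x, hxC⟩
  have hxz : xc ∈ Subgroup.center C := Subgroup.mem_center_iff.2 fun g =>
    Subtype.ext (Subgroup.mem_centralizer_singleton_iff.1 g.2)
  let Z : Subgroup C := Subgroup.zpowers xc
  have hZc : Z ≤ Subgroup.center C := Subgroup.zpowers_le.2 hxz
  haveI : Z.Normal := ⟨fun n hn g => by
    rw [Subgroup.mem_center_iff.1 (hZc hn) g, mul_inv_cancel_right]; exact hn⟩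
  have hmem : ∀ g : C, g ∈ Z ↔ (g : G) ∈ Subgroup.zpowers x := fun g => by
    constructor
    · rintro ⟨k, rfl⟩; exact ⟨k, by simp [xc]⟩
    · rintro ⟨k, hk⟩; exact ⟨k, Subtype.ext (by simpa [xc] using hk)⟩
  let vc : ℕ → C := fun a => if h : a < 7 then ⟨v a, hcomm a h⟩ else 1
  let W : Subgroup C := Subgroup.closure {z | ∃ a < 7, vc a = z} ⊔ Z
  let q : ℕ → W ⧸ Z.subgroupOf W := fun a =>
    if h : a < 7 then QuotientGroup.mk ⟨vc a, Subgroup.mem_sup_left (Subgroup.subset_closure ⟨a, h, rfl⟩)⟩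
    else 1
  have hgen : Subgroup.closure {z | ∃ a < 7, q a = z} = ⊤ := by
    let T := (Subgroup.closure {z | ∃ a < 7, q a = z}).comap (QuotientGroup.mk' (Z.subgroupOf W))
    have hT : (W : Subgroup C) ≤ T.map W.subtype := by
      refine sup_le ?_ fun g hg => ?_
      · rw [Subgroup.closure_le]
        rintro _ ⟨a, ha, rfl⟩
        refine ⟨⟨vc a, Subgroup.mem_sup_left (Subgroup.subset_closure ⟨a, ha, rfl⟩)⟩, ?_, rfl⟩
        exact Subgroup.subset_closure ⟨a, ha, by simp [q, ha]⟩
      · refine ⟨⟨g, Subgroup.mem_sup_right hg⟩, ?_, rfl⟩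
        show QuotientGroup.mk' (Z.subgroupOf W) _ ∈ Subgroup.closure {z | ∃ a < 7, q a = z}
        rw [show QuotientGroup.mk' (Z.subgroupOf W) (⟨g, Subgroup.mem_sup_right hg⟩ : W) = 1 from
          (QuotientGroup.eq_one_iff _).2 hg]
        exact one_mem _
    refine eq_top_iff.2 fun y _ => ?_
    obtain ⟨w, rfl⟩ := QuotientGroup.mk_surjective y
    obtain ⟨w', hw', he⟩ := hT w.2
    rwa [show w' = w from Subtype.ext he] at hw'
  have hlt : ∀ r ∈ McLCover.mclRels, ∀ a ∈ r, a < 7 := fun r hr a ha => by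
    have h := List.all_eq_true.1 (List.all_eq_true.1 McLCover.mclRels_lt r hr) a ha
    simpa [Nat.blt, Nat.ble_eq] using h
  have key : ∀ w : List ℕ, (∀ a ∈ w, a < 7) →
      ∃ u : W, QuotientGroup.mk u = gword q w ∧ ((u : C) : G) = gword v w := by
    intro w
    induction w with
    | nil => exact fun _ => ⟨1, rfl, rfl⟩
    | cons a w ih =>
      intro hw
      obtain ⟨u, hu, hu'⟩ := ih fun b hb => hw b (List.mem_cons_of_mem _ hb)
      have ha := hw a List.mem_cons_self
      refine ⟨⟨vc a, Subgroup.mem_sup_left (Subgroup.subset_closure ⟨a, ha, rfl⟩)⟩ * u, ?_, ?_⟩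
      · rw [gword_cons, QuotientGroup.mk_mul, hu]; simp [q, ha]
      · rw [gword_cons, Subgroup.coe_mul, Subgroup.coe_mul, hu']; simp [vc, ha]
  have hrq : ∀ r ∈ McLCover.mclRels, gword q r = 1 := fun r hr => by
    obtain ⟨u, hu, hu'⟩ := key r (hlt r hr)
    rw [← hu, QuotientGroup.eq_one_iff, Subgroup.mem_subgroupOf, hmem, hu']
    exact hrel r hr
  have hnq : ∃ a < 7, q a ≠ 1 := by
    obtain ⟨a, ha, hva⟩ := hne
    refine ⟨a, ha, fun h => hva ?_⟩
    simp only [q, ha, ↓reduceDIte, QuotientGroup.eq_one_iff, Subgroup.mem_subgroupOf, hmem] at h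
    simpa [vc, ha] using h
  obtain ⟨hsimp, hcard⟩ := simple_of_mclRels q hgen hrq hnq
  have hZcard : Nat.card Z = 3 := by
    rw [Nat.card_zpowers, ← hx]; exact (Subgroup.orderOf_coe xc).symm
  have hWcard : Nat.card W = 2694384000 := by
    rw [Subgroup.card_eq_card_quotient_mul_card_subgroup (Z.subgroupOf W), hcard,
      Nat.card_congr (Subgroup.subgroupOfEquivOfLe (le_sup_right : Z ≤ W)).toEquiv, hZcard]
  have hW : W = ⊤ := by
    have h := W.card_mul_index
    rw [hWcard] at h
    refine Subgroup.index_eq_one.1 ?_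
    have h1 : W.index ≠ 0 := Subgroup.index_ne_zero_of_finite
    omega
  have hCcard : Nat.card C = 2694384000 := by rw [← hWcard, hW, Subgroup.card_top]
  have hQ : Nat.card (C ⧸ Z) = 898128000 := by
    have h := Subgroup.card_eq_card_quotient_mul_card_subgroup Z
    rw [hCcard, hZcard] at h; omega
  haveI : IsSimpleGroup (C ⧸ Z) := by
    haveI := hsimp
    let φ : W ⧸ Z.subgroupOf W →* C ⧸ Z :=
      QuotientGroup.map _ Z W.subtype (fun _ h => h)
    have hs : Function.Surjective φ := fun y => by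
      obtain ⟨g, rfl⟩ := QuotientGroup.mk_surjective y
      exact ⟨QuotientGroup.mk ⟨g, hW ▸ Subgroup.mem_top g⟩, rfl⟩
    exact (MulEquiv.ofBijective φ
      ((Nat.bijective_iff_surjective_and_card _).2 ⟨hs, by rw [hcard, hQ]⟩)).symm.isSimpleGroup
  have hna : ¬ IsMulCommutative (C ⧸ Z) := fun h => by
    have hp : (Nat.card (C ⧸ Z)).Prime := by
      letI : CommGroup (C ⧸ Z) := { (inferInstance : Group (C ⧸ Z)) with mul_comm := h.is_comm.comm }
      exact IsSimpleGroup.prime_card
    rw [hQ] at hp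
    norm_num at hp
  have hcen : Subgroup.center C = Z := by
    refine le_antisymm (fun g hg => ?_) hZc
    by_contra hgZ
    have hn : (Subgroup.center (C ⧸ Z)) = ⊤ := by
      refine ((inferInstance : (Subgroup.center (C ⧸ Z)).Normal).eq_bot_or_eq_top).resolve_left fun hb => hgZ ?_
      have : (QuotientGroup.mk g : C ⧸ Z) ∈ Subgroup.center (C ⧸ Z) := Subgroup.mem_center_iff.2 fun y => by
        obtain ⟨y, rfl⟩ := QuotientGroup.mk_surjective y
        rw [← QuotientGroup.mk_mul, ← QuotientGroup.mk_mul, Subgroup.mem_center_iff.1 hg y]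
      rw [hb, Subgroup.mem_bot, QuotientGroup.eq_one_iff] at this
      exact this
    exact hna ⟨⟨fun a b => Subgroup.mem_center_iff.1 (hn ▸ Subgroup.mem_top b) a⟩⟩
  refine ⟨by rw [hcen, hZcard], ?_⟩
  let e : C ⧸ Z ≃* C ⧸ Subgroup.center C := QuotientGroup.quotientMulEquivOfEq hcen.symm
  exact ⟨e.symm.isSimpleGroup, by rw [← Nat.card_congr e.toEquiv, hQ]⟩

end CfsgLib.LyThree47
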