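import Cfsg.Agent.LyThree47.Checks
import Cfsg.Agent.LyThree47.Quot
import Cfsg.Agent.LyExist36.Main

/-!
The centraliser of an element of order three of the presented Lyons group.
-/

set_option autoImplicit false
set_option maxRecDepth 100000

namespace CfsgLib.LyThree47

open CfsgLib.LyRep96 CfsgLib.CosetEnum Matrix
open CfsgLib.LyExist36 (el iw el_append el_iw el_mem rep_inj HH)

theorem good_all : ∀ x, x < 22 → Good x := by
  have g0 : ∀ x, x < 10 → Good x := fun x h => good_base h
  have hlo : ∀ w : List ℕ, w.all (fun x => Nat.blt x 10) = true → ∀ y ∈ w, Good y := fun w hw y hy =>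
    g0 y (Nat.blt_eq.mp (List.all_eq_true.mp hw y hy))
  have hv : ∀ w : List ℕ, w.all (fun x => Nat.blt x 10) = true → el w = (w.map val).prod := by
    intro w hw
    refine congrArg List.prod (List.map_congr_left fun y hy => ?_)
    have hy' : y < 10 := Nat.blt_eq.mp (List.all_eq_true.mp hw y hy)
    interval_cases y <;> rfl
  have g22 : Good 22 := good_of_word def22 (hlo _ (by decide +kernel)) (hv _ (by decide +kernel))
  have g10 : Good 10 := good_of_word def10 (hlo _ (by decide +kernel)) (hv _ (by decide +kernel))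
  have g11 : Good 11 := good_of_word def11 (fun y hy => by
    simp only [List.mem_cons, List.not_mem_nil, or_false, or_self] at hy; exact hy ▸ g22)
    (by
      show eB = _
      rw [eB, bWord, el_append, el_append]
      simp [val, val0, eW, mul_assoc])
  have g12 : Good 12 := good_of_word def12 (fun y hy => by
    simp only [List.mem_cons, List.not_mem_nil, or_false, or_self] at hy; exact hy ▸ g11)
    (by simp [val, val0, mul_assoc])
  have g20 : Good 20 := good_of_word def20 (hlo _ (by decide +kernel)) (hv _ (by decide +kernel))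
  have g21 : Good 21 := good_of_word def21 (fun y hy => by
    simp only [List.mem_cons, List.not_mem_nil, or_false, or_self] at hy; exact hy ▸ g20)
    (by simp [val, val0])
  have gi : ∀ i, i < 7 → Good (13 + i) := by
    intro i hi
    have hw : (List.range 7).all (fun i => (gWords.getD i []).all fun y =>
        Nat.beq y 10 || Nat.beq y 11 || Nat.beq y 12) = true := by decide +kernel
    have hmem : ∀ y ∈ gWords.getD i [], y = 10 ∨ y = 11 ∨ y = 12 := fun y hy => by
      have h := List.all_eq_true.mp (List.all_eq_true.mp hw i (List.mem_range.mpr hi)) y hy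
      simp only [Bool.or_eq_true, Nat.beq_eq, or_assoc] at h
      exact h
    refine good_of_word (defG hi) (fun y hy => ?_) ?_
    · rcases hmem y hy with rfl | rfl | rfl
      exacts [g10, g11, g12]
    · rw [val, if_pos ⟨by omega, by omega⟩, show 13 + i - 13 = i by omega]
      refine congrArg List.prod (List.map_congr_left fun y hy => ?_)
      rcases hmem y hy with rfl | rfl | rfl <;> rfl
  intro x hx
  rcases Nat.lt_or_ge x 10 with h | h
  · exact g0 x h
  rcases Nat.lt_or_ge x 13 with h' | h'
  · interval_cases x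
    exacts [g10, g11, g12]
  rcases Nat.lt_or_ge x 20 with h'' | h''
  · have := gi (x - 13) (by omega)
    rwa [show 13 + (x - 13) = x by omega] at this
  · interval_cases x
    exacts [g20, g21]

theorem good_list {w : List ℕ} (h : ∀ x ∈ w, x < 22) : ∀ x ∈ w, Good x :=
  fun x hx => good_all x (h x hx)

theorem eq_of_eqT [IsSimpleGroup Cfsg.Spor.Ly] {w w' : List ℕ} (h : eqT w w' = true)
    (hw : ∀ x ∈ w, x < 22) (hw' : ∀ x ∈ w', x < 22) : (w.map val).prod = (w'.map val).prod :=
  rep_inj (rep_eq_of_eqT h (good_list hw) (good_list hw'))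

theorem eT_val : eT = val 20 := rfl

theorem eT_order [IsSimpleGroup Cfsg.Spor.Ly] : orderOf eT = 3 := by
  haveI : Fact (Nat.Prime 3) := ⟨by norm_num⟩
  refine orderOf_eq_prime ?_ ?_
  · have h := eq_of_eqT t_cube.1 (by simp) (by simp)
    simp only [List.map_cons, List.map_nil, List.prod_cons, List.prod_nil, mul_one, ← eT_val] at h
    rw [pow_succ, pow_succ, pow_one, mul_assoc, h]
  · intro h
    refine ne_of_eqT t_cube.2 (good_list (by simp)) (good_list (by simp)) ?_
    simpa [← eT_val] using h

theorem g_mem [IsSimpleGroup Cfsg.Spor.Ly] (a : ℕ) (ha : a < 7) :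
    val (13 + a) ∈ Subgroup.centralizer ({eT} : Set Cfsg.Spor.Ly) := by
  rw [Subgroup.mem_centralizer_singleton_iff]
  have h := eq_of_eqT (List.all_eq_true.mp g_comm a (List.mem_range.mpr ha)) (by simp; omega)
    (by simp; omega)
  simpa [← eT_val] using h

theorem g_rel [IsSimpleGroup Cfsg.Spor.Ly] (r : List ℕ) (hr : r ∈ McLCover.mclRels) :
    gword (fun a => val (13 + a)) r ∈ Subgroup.zpowers eT := by
  obtain ⟨i, hi, rfl⟩ := List.getElem_of_mem hr
  have h := rel_check (rel_length ▸ hi)
  rw [List.getD_eq_getElem _ _ hi] at h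
  have hlt : ∀ x ∈ (McLCover.mclRels[i]).map (· + 13), x < 22 := fun x hx => by
    obtain ⟨y, hy, rfl⟩ := List.mem_map.mp hx
    have := List.all_eq_true.mp (List.all_eq_true.mp McLCover.mclRels_lt _ (List.getElem_mem hi)) y hy
    rw [Nat.blt_eq] at this
    show y + 13 < 22
    omega
  have he : ∀ e, (∀ x ∈ expWord e, x < 22) ∧ ((expWord e).map val).prod ∈ Subgroup.zpowers eT := by
    intro e
    match e with
    | 0 => exact ⟨by simp [expWord], by simp [expWord]⟩
    | 1 => exact ⟨by simp [expWord], by simp [expWord, ← eT_val]⟩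
    | _ + 2 =>
      exact ⟨by simp [expWord], by simp [expWord, val, val0, Subgroup.mul_mem]⟩
  have h2 := eq_of_eqT h hlt (he _).1
  have h3 : gword (fun a => val (13 + a)) (McLCover.mclRels[i]) =
      (((McLCover.mclRels[i]).map (· + 13)).map val).prod := by
    rw [List.map_map, gword]
    exact congrArg List.prod (List.map_congr_left fun a _ => by
      show val (13 + a) = val (a + 13); rw [Nat.add_comm])
  rw [h3, h2]
  exact (he _).2

theorem g_not_mem [IsSimpleGroup Cfsg.Spor.Ly] :
    val (13 + 0) ∉ Subgroup.zpowers eT := by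
  intro h
  obtain ⟨n, hn⟩ := h
  simp only at hn
  have hne : ∀ e, e ∈ [([] : List ℕ), [20], [21]] → val (13 + 0) ≠ (e.map val).prod := by
    intro e he heq
    simp only [List.mem_cons, List.not_mem_nil, or_false] at he
    have h2 : ([13].map val).prod = (e.map val).prod := by simpa using heq
    rcases he with rfl | rfl | rfl
    · exact ne_of_eqT g_ne.1 (good_list (by simp)) (good_list (by simp)) h2
    · exact ne_of_eqT g_ne.2.1 (good_list (by simp)) (good_list (by simp)) h2
    · exact ne_of_eqT g_ne.2.2 (good_list (by simp)) (good_list (by simp)) h2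
  rw [← zpow_mod_orderOf, eT_order] at hn
  rcases (by omega : n % (3 : ℤ) = 0 ∨ n % (3 : ℤ) = 1 ∨ n % (3 : ℤ) = 2) with h | h | h
  · exact hne [] (by simp) (by rw [← hn]; simp [h])
  · exact hne [20] (by simp) (by rw [← hn]; simp [h, ← eT_val])
  · exact hne [21] (by simp) (by rw [← hn]; simp [h, val, val0, zpow_ofNat, sq])

theorem el_sWord_conj : el sWord = (el qWord)⁻¹ * eT * el qWord := by
  have h := words_ok
  simp only [Bool.and_eq_true] at h
  rw [s_eq, el_append, el_append, el_iw _ h.1.1.2]
  rfl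

theorem small_centralizer [Finite Cfsg.Spor.Ly] [IsSimpleGroup Cfsg.Spor.Ly]
    (hK : Nat.card (HH ⊓ HH.comap (MulAut.conj (el gWord4)).toMonoidHom : Subgroup Cfsg.Spor.Ly) ≤ 2880) :
    Nat.card (HH ⊓ Subgroup.centralizer ({el sWord} : Set Cfsg.Spor.Ly) :
      Subgroup Cfsg.Spor.Ly) ≤ 480 := by
  have hok := words_ok
  simp only [Bool.and_eq_true] at hok
  obtain ⟨⟨⟨⟨⟨hh1, hh2⟩, hkp⟩, -⟩, -⟩, -⟩ := hok
  set s := el sWord with hs
  set K := HH ⊓ HH.map (MulAut.conj s).toMonoidHom with hKdef
  have hmem : ∀ g, g ∈ HH.map (MulAut.conj s).toMonoidHom ↔ s⁻¹ * g * s ∈ HH := by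
    intro g
    rw [Subgroup.mem_map_equiv, MulAut.conj_symm_apply]
  set h1 := el h1Word with hh1e
  set g0 := el gWord4 with hg0
  set h2 := el h2Word with hh2e
  have hse : s = h1 * g0 * h2 := by
    rw [hs, hh1e, hg0, hh2e, ← el_append, ← el_append]
    exact rep_inj (rep_eq_of_sameOK s_in_coset)
  have h1H : h1 ∈ HH := el_mem hh1
  have h2H : h2 ∈ HH := el_mem hh2
  have hKle : Nat.card K ≤ 2880 := by
    refine le_trans (Nat.card_le_card_of_injective (fun k : K =>
      (⟨(h1 * g0)⁻¹ * k * (h1 * g0), ?_, ?_⟩ :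
        (HH ⊓ HH.comap (MulAut.conj g0).toMonoidHom : Subgroup Cfsg.Spor.Ly))) ?_) hK
    · have h := (hmem _).mp k.2.2
      rw [hse] at h
      have e : (h1 * g0 * h2)⁻¹ * (k : Cfsg.Spor.Ly) * (h1 * g0 * h2) =
          h2⁻¹ * ((h1 * g0)⁻¹ * k * (h1 * g0)) * h2 := by group
      rw [e, HH.mul_mem_cancel_right h2H, HH.mul_mem_cancel_left (inv_mem h2H)] at h
      exact h
    · show g0 * ((h1 * g0)⁻¹ * (k : Cfsg.Spor.Ly) * (h1 * g0)) * g0⁻¹ ∈ HH
      rw [show g0 * ((h1 * g0)⁻¹ * (k : Cfsg.Spor.Ly) * (h1 * g0)) * g0⁻¹ = h1⁻¹ * k * h1 by group]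
      exact mul_mem (mul_mem (inv_mem h1H) k.2.1) h1H
    · intro a b hab
      have := congrArg Subtype.val hab
      exact Subtype.ext (mul_left_cancel (mul_right_cancel this))
  have hgen : ∀ j, el (kGen j) ∈ K := by
    intro j
    set p := (kPairs.getD j ([], [])).1 with hp
    set q := (kPairs.getD j ([], [])).2 with hq
    rcases lt_or_ge j kPairs.length with hj | hj
    · have hm : kPairs[j] ∈ kPairs := List.getElem_mem hj
      have h1' := List.all_eq_true.mp hkp _ hm
      rw [← List.getD_eq_getElem _ ([], []) hj, Bool.and_eq_true, ← hp, ← hq] at h1'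
      refine ⟨el_mem (List.all_eq_true.mp kGen_lt j (List.mem_range.mpr (k_length ▸ hj))),
        (hmem _).mpr ?_⟩
      have h78 : h1Word.all (fun x => Nat.blt x 78) = true := by decide +kernel
      have h2' : el p * g0 = g0 * el q := by
        rw [hg0, ← el_append, ← el_append]
        exact rep_inj (rep_eq_of_sameOK (k_images hj))
      have h3 : el (kGen j) = h1 * el p * h1⁻¹ := by
        rw [kGen, el_append, el_append, el_iw _ h78, ← hp]
      have e : (h1 * g0 * h2)⁻¹ * (h1 * el p * h1⁻¹) * (h1 * g0 * h2) =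
          h2⁻¹ * (g0⁻¹ * (el p * g0)) * h2 := by group
      rw [h3, hse, e, h2', inv_mul_cancel_left]
      exact mul_mem (mul_mem (inv_mem h2H) (el_mem h1'.2)) h2H
    · have h78 : h1Word.all (fun x => Nat.blt x 78) = true := by decide +kernel
      have h3 : el (kGen j) = 1 := by
        rw [kGen, List.getD_eq_default _ _ hj, List.append_nil, el_append, el_iw _ h78,
          mul_inv_cancel]
      rw [h3]
      exact one_mem K
  have hword : ∀ ids, el (kWord ids) ∈ K := by
    intro ids
    induction ids with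
    | nil => exact one_mem K
    | cons j ids ih =>
      rw [kWord, List.flatMap_cons, el_append]
      exact mul_mem (hgen j) ih
  have hw78 : kIds.all (fun ids => (kWord ids).all fun x => Nat.blt x 78) = true := by decide +kernel
  have hkl : kIds.length = 6 := k_vecs_lt.2.2
  let k : Fin 6 → Cfsg.Spor.Ly := fun i => el (kWord (kIds.getD i []))
  have hkey : ∀ i : Fin 6, kVecs.getD i 0 =
      packV ((Pi.single 7 1) ᵥ* (rep (k i * s * (k i)⁻¹)).1) := by
    intro i
    have hv : packV (Pi.single (7 : Fin 111) (1 : ZMod 5)) = B ^ 7 := by decide +kernel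
    have hi : (i : ℕ) < kIds.length := by rw [hkl]; exact i.2
    rw [← k_vecs, List.getD_eq_getElem _ _ (by simpa using hi), List.getElem_map, ← hv, runM_packV]
    congr 3
    show rep (el _) = _
    have hm : kIds[(i : ℕ)] ∈ kIds := List.getElem_mem _
    rw [el_append, el_append, el_iw _ (List.all_eq_true.mp hw78 _ hm)]
    simp only [k, List.getD_eq_getElem _ _ hi]
    rfl
  have hmono : ∀ i j : Fin 6, i < j → kVecs.getD i 0 < kVecs.getD j 0 := by
    have hstep : ∀ i, i < 5 → kVecs.getD i 0 < kVecs.getD (i + 1) 0 := fun i hi =>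
      Nat.blt_eq.mp (List.all_eq_true.mp k_vecs_lt.1 i (List.mem_range.mpr hi))
    intro i j hij
    exact (Fin.strictMono_iff_lt_succ (f := fun i : Fin 6 => kVecs.getD i 0)).mpr
      (fun i => hstep i i.2) hij
  have hd : Function.Injective fun i => k i * s * (k i)⁻¹ := by
    intro i j hij
    have e : kVecs.getD i 0 = kVecs.getD j 0 := by rw [hkey, hkey]; simp only at hij; rw [hij]
    rcases lt_trichotomy i j with h | h | h
    · exact absurd e (hmono i j h).ne
    · exact h
    · exact absurd e (hmono j i h).ne'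
  have h := CfsgLib.LyExist36.card_inf_centralizer_le HH s hKle k (fun i => hword _) hd
  omega

theorem centralizer_eT [Finite Cfsg.Spor.Ly] [IsSimpleGroup Cfsg.Spor.Ly] (hi : HH.index = 8835156)
    (hK : Nat.card (HH ⊓ HH.comap (MulAut.conj (el gWord4)).toMonoidHom : Subgroup Cfsg.Spor.Ly) ≤ 2880) :
    orderOf eT = 3 ∧ Nat.card (Subgroup.center (Subgroup.centralizer ({eT} : Set Cfsg.Spor.Ly))) = 3 ∧
      Cfsg.IsMcL ((Subgroup.centralizer ({eT} : Set Cfsg.Spor.Ly)) ⧸
        Subgroup.center (Subgroup.centralizer ({eT} : Set Cfsg.Spor.Ly))) := by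
  refine ⟨eT_order, centralizer_three eT_order (fun a => val (13 + a)) g_mem g_rel
    ⟨0, by norm_num, g_not_mem⟩ ?_⟩
  have h1 := CfsgLib.LyExist36.card_centralizer_le HH (el sWord)
  have h2 := small_centralizer hK
  have h3 : Nat.card (Subgroup.centralizer ({eT} : Set Cfsg.Spor.Ly)) =
      Nat.card (Subgroup.centralizer ({el sWord} : Set Cfsg.Spor.Ly)) := by
    refine Nat.card_congr ((MulAut.conj (el qWord)⁻¹).toEquiv.subtypeEquiv fun g => ?_)
    show g ∈ Subgroup.centralizer ({eT} : Set Cfsg.Spor.Ly) ↔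
      (el qWord)⁻¹ * g * (el qWord)⁻¹⁻¹ ∈ Subgroup.centralizer ({el sWord} : Set Cfsg.Spor.Ly)
    rw [Subgroup.mem_centralizer_singleton_iff, Subgroup.mem_centralizer_singleton_iff,
      el_sWord_conj, inv_inv]
    constructor
    · intro h
      calc (el qWord)⁻¹ * g * el qWord * ((el qWord)⁻¹ * eT * el qWord) =
            (el qWord)⁻¹ * (g * eT) * el qWord := by group
        _ = (el qWord)⁻¹ * (eT * g) * el qWord := by rw [h]
        _ = (el qWord)⁻¹ * eT * el qWord * ((el qWord)⁻¹ * g * el qWord) := by group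
    · intro h
      calc g * eT = el qWord * ((el qWord)⁻¹ * g * el qWord *
            ((el qWord)⁻¹ * eT * el qWord)) * (el qWord)⁻¹ := by group
        _ = el qWord * ((el qWord)⁻¹ * eT * el qWord *
            ((el qWord)⁻¹ * g * el qWord)) * (el qWord)⁻¹ := by rw [h]
        _ = eT * g := by group
  rw [hi] at h1
  have h4 := Nat.mul_le_mul_left 8835156 h2
  omega

end CfsgLib.LyThree47
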