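import Cfsg.Agent.LyIndex33.Nodes
import Cfsg.Agent.LyThree47.Main

/-!
The node of the presented Lyons group with stabiliser of order 2880 as a word in letters.
-/

set_option autoImplicit false
set_option maxRecDepth 100000

namespace CfsgLib.LyThree47

open CfsgLib.DCert22 CfsgLib.CosetEnum Cfsg.Spor CfsgLib.Ly33

attribute [local irreducible] mulP invP gA gB gC gD

/-- the middle part of the word of the node -/
def mid4 : List ℕ := [6, 4, 6]

theorem mid4_code : wordP mid4 = (cert.nodes.getD 3 (0, 0)).2 := by decide +kernel

theorem grep_four : grep lySetup.model cert 4 = LyExist36.el gWord4 := by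
  have h1 : grep lySetup.model cert 1 = lySetup.t := by
    show (1 : Ly) * lySetup.model.val _ * lySetup.t = _
    rw [show (39402006196394479214415027136064523887590553065872314977980846013346449130061698275692255149584597951633472719159297 : ℕ) = enc (1 : Hg) from enc_one.symm]
    rw [one_mul]
    erw [lySetup.model.val_enc]
    rw [map_one, one_mul]
  have h4 : grep lySetup.model cert 4 =
      grep lySetup.model cert 1 * lySetup.model.val (cert.nodes.getD 3 (0, 0)).2 * lySetup.t := rfl
  rw [h4, h1, ← mid4_code, ← enc_gword]
  erw [lySetup.model.val_enc]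
  show lySetup.t * phiLy _ * lySetup.t = _
  have hm : phiLy (gword (LyG2.lets hv) mid4) = LyExist36.el mid4 := by
    simp only [mid4, LyExist36.el, gword, List.map_cons, List.map_nil, List.prod_cons,
      List.prod_nil, mul_one, map_mul]
    refine congr_arg₂ (· * ·) ?_ (congr_arg₂ (· * ·) ?_ ?_)
    · exact phiLy_D
    · exact phiLy_C
    · exact phiLy_D
  rw [hm]
  show LyExist36.el [8] * LyExist36.el mid4 * LyExist36.el [8] = _
  rw [← LyExist36.el_append, ← LyExist36.el_append]
  rfl

/-- the node bound used for the centraliser of the element of order three -/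
theorem card_gWord4_le (hex : Ly95.abcd.index = 8835156) :
    Nat.card (LyExist36.HH ⊓ LyExist36.HH.comap (MulAut.conj (LyExist36.el gWord4)).toMonoidHom :
      Subgroup Ly) ≤ 2880 := by
  rw [← grep_four]
  exact (card_inf_conj hex (a := 4) (by decide)).le

/-- the statement from order, simplicity and index -/
theorem exists_three (hLy : Cfsg.IsLy Ly) (hex : Ly95.abcd.index = 8835156) :
    ∃ (G : Type) (_ : Group G) (_ : Finite G), Cfsg.IsLy G ∧ ∃ x : G, orderOf x = 3 ∧
      Nat.card (Subgroup.center (Subgroup.centralizer ({x} : Set G))) = 3 ∧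
      Cfsg.IsMcL ((Subgroup.centralizer ({x} : Set G)) ⧸
        Subgroup.center (Subgroup.centralizer ({x} : Set G))) := by
  haveI := hLy.1
  haveI : Finite Ly := Nat.finite_of_card_ne_zero (by rw [hLy.2]; norm_num)
  obtain ⟨h1, h2, h3⟩ := centralizer_eT hex (card_gWord4_le hex)
  exact ⟨Ly, inferInstance, inferInstance, hLy, eT, h1, h2, h3⟩

end CfsgLib.LyThree47
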