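import Cfsg.Agent.LyExist36.Table
import Cfsg.Agent.LyThree47.Data0
import Cfsg.Agent.LyThree47.Data1
import Cfsg.Agent.LyThree47.Data2
import Cfsg.Agent.LyThree47.Words

/-!
Elements centralising an element of order three of the presented Lyons group, with their packed
matrices.
-/

set_option autoImplicit false
set_option maxRecDepth 100000

namespace CfsgLib.LyThree47

open CfsgLib.LyRep96
open CfsgLib.LyExist36 (el)

/-- the packed matrix of an index: ten letters and the derived elements -/
def tab : ℕ → List ℕ
  | 10 => der10
  | 11 => der11
  | 12 => der12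
  | 13 => der13
  | 14 => der14
  | 15 => der15
  | 16 => der16
  | 17 => der17
  | 18 => der18
  | 19 => der19
  | 20 => der20
  | 21 => der21
  | 22 => der22
  | x => matL x

/-- the first standard generator -/
def eA : Cfsg.Spor.Ly := el aWord

/-- the second standard generator -/
def eB : Cfsg.Spor.Ly := el bWord

/-- a cube root of the second standard generator -/
def eW : Cfsg.Spor.Ly := el wWord

/-- the element of order three -/
def eT : Cfsg.Spor.Ly := el xWord

/-- the elements of the first indices -/
def val0 : ℕ → Cfsg.Spor.Ly
  | 10 => eA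
  | 11 => eB
  | 12 => eB * eB * eB * eB
  | 20 => eT
  | 21 => eT * eT
  | 22 => eW
  | x => letter x

/-- the elements of all indices -/
def val (x : ℕ) : Cfsg.Spor.Ly :=
  if 13 ≤ x ∧ x < 20 then ((gWords.getD (x - 13) []).map val0).prod else val0 x

/-- the table is right at an index -/
def Good (x : ℕ) : Prop := matOf (tab x) = (rep (val x)).1

theorem tab_shapes : (List.range 23).all (fun x => shapeOK (tab x)) = true := by decide +kernel

theorem tab_shape (x : ℕ) : shapeOK (tab x) = true := by
  rcases Nat.lt_or_ge x 23 with h | h
  · exact List.all_eq_true.mp tab_shapes x (List.mem_range.mpr h)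
  · have e : tab x = matL x := by
      obtain ⟨n, rfl⟩ : ∃ n, x = n + 23 := ⟨x - 23, by omega⟩
      rfl
    rw [e]
    exact shape_all x

/-- two words in indices act alike -/
def eqT (w w' : List ℕ) : Bool := Nat.beq (runM tab w oneS) (runM tab w' oneS)

theorem runT {w : List ℕ} (hw : ∀ x ∈ w, Good x) :
    runM tab w oneS = packM (rep (w.map val).prod).1 := by
  rw [← packM_one, runM_packM tab tab_shape, one_mul]
  congr 1
  induction w with
  | nil => simp
  | cons x w ih =>
    rw [List.map_cons, List.prod_cons, List.map_cons, List.prod_cons, map_mul, Units.val_mul,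
      ih fun y hy => hw y (List.mem_cons_of_mem _ hy), hw x List.mem_cons_self]

theorem rep_eq_of_eqT {w w' : List ℕ} (h : eqT w w' = true) (hw : ∀ x ∈ w, Good x)
    (hw' : ∀ x ∈ w', Good x) : rep (w.map val).prod = rep (w'.map val).prod := by
  rw [eqT, Nat.beq_eq, runT hw, runT hw'] at h
  exact Units.ext (packM_inj h)

theorem ne_of_eqT {w w' : List ℕ} (h : eqT w w' = false) (hw : ∀ x ∈ w, Good x)
    (hw' : ∀ x ∈ w', Good x) : (w.map val).prod ≠ (w'.map val).prod := fun e => by
  rw [eqT, runT hw, runT hw', e, Nat.beq_refl] at h
  exact Bool.noConfusion h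

theorem good_base {x : ℕ} (h : x < 10) : Good x := by
  show matOf (tab x) = (rep (val x)).1
  rw [show val x = letter x by interval_cases x <;> rfl, rep_letter]
  interval_cases x <;> rfl

/-- a new index that acts as a word in earlier ones -/
theorem good_of_word {x : ℕ} {w : List ℕ} (h : eqT [x] w = true) (hw : ∀ y ∈ w, Good y)
    (hv : val x = (w.map val).prod) : Good x := by
  rw [eqT, Nat.beq_eq, runT hw] at h
  show matOf (tab x) = (rep (val x)).1
  rw [hv]
  refine packM_inj ?_
  rw [← h, ← packM_one, runM_packM tab tab_shape, one_mul, List.map_singleton, List.prod_singleton]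

/-- the word of the exponent of the element -/
def expWord : ℕ → List ℕ
  | 0 => []
  | 1 => [20]
  | _ => [21]

end CfsgLib.LyThree47
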